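import Mathlib
import Cfsg.Agent.Lib.Helper85.UnifPow
import Cfsg.Agent.Lib.Helper63.BB.Defs

set_option autoImplicit false

/-!
S4144 team project "BB", package [PS], method 2: the power structure of the lower central series
of a `p`-group with an element `e` whose centralizer has order `p ^ 2` and whose `p`-th power is
central (instead of trivial as in `Helper85.UnifElt.Unif`).  The proofs are those of
`Helper85/UnifElt.lean` and `Helper85/UnifPow.lean` with the necessary changes.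
-/

namespace Cfsg.Agent.Lib.Helper56.BB.PS

open scoped commutatorElement Pointwise
open Cfsg.Agent.S4209 Cfsg.Agent.Lib.Helper85.PolySeq Cfsg.Agent.Lib.Helper85.UnifElt
open Cfsg.Agent.Lib

universe u

variable {G : Type u} [Group G]

/-- `e` has central `p`-th power and centralizer of order `p ^ 2` in the group `G` of order
`p ^ n`, `n ≥ 3`. -/
structure UnifC (p n : ℕ) (e : G) : Prop where
  card : Nat.card G = p ^ n
  n3 : 3 ≤ n
  pow : e ^ p ∈ Subgroup.center G
  cent : Nat.card (Subgroup.centralizer ({e} : Set G)) = p ^ 2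

theorem card_zpowers_supC [Finite G] {p : ℕ} [Fact p.Prime] {n : ℕ} (hG : Nat.card G = p ^ n)
    (N : Subgroup G) (hN : N.Normal) {y : G} (hy : y ∉ N) (hyp : y ^ p ∈ N) :
    Nat.card (Subgroup.zpowers y ⊔ N : Subgroup G) = p * Nat.card N := by
  have hp : p.Prime := Fact.out
  obtain ⟨K, hK⟩ : ∃ K, K = Subgroup.zpowers y ⊔ N := ⟨_, rfl⟩
  rw [← hK]
  have hNK : N ≤ K := by rw [hK]; exact le_sup_right
  have hyK : y ∈ K := by rw [hK]; exact Subgroup.mem_sup_left (Subgroup.mem_zpowers y)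
  obtain ⟨a, -, ha⟩ := (Nat.dvd_prime_pow hp).1 (hG ▸ Subgroup.card_subgroup_dvd_card K)
  obtain ⟨b, -, hb⟩ := (Nat.dvd_prime_pow hp).1 (hG ▸ Subgroup.card_subgroup_dvd_card N)
  have hle : Nat.card K ≤ p * Nat.card N := by
    obtain ⟨S, hS⟩ : ∃ S : Set G, S = (fun a : ℕ => y ^ a) '' (Finset.range p : Set ℕ) :=
      ⟨_, rfl⟩
    have hSc : Nat.card S ≤ p := by
      rw [hS, Nat.card_coe_set_eq]
      calc ((fun a : ℕ => y ^ a) '' (Finset.range p : Set ℕ)).ncard
          ≤ (Finset.range p : Set ℕ).ncard := Set.ncard_image_le (Finset.finite_toSet _)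
        _ = p := by rw [Set.ncard_coe_finset, Finset.card_range]
    have hsub : ((K : Subgroup G) : Set G) ⊆ S * (N : Set G) := by
      rw [hK, Subgroup.mul_normal]
      rintro _ ⟨z, hz, l, hl, rfl⟩
      obtain ⟨c, rfl⟩ := Subgroup.mem_zpowers_iff.1 hz
      have hp0 : (p : ℤ) ≠ 0 := by exact_mod_cast hp.ne_zero
      have hr0 : 0 ≤ c % (p : ℤ) := Int.emod_nonneg _ hp0
      have hr1 : c % (p : ℤ) < p := Int.emod_lt_of_pos _ (by exact_mod_cast hp.pos)
      refine ⟨y ^ (c % (p : ℤ)).toNat, ?_, (y ^ p) ^ (c / (p : ℤ)) * l,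
        N.mul_mem (N.zpow_mem hyp _) hl, ?_⟩
      · rw [hS]
        refine ⟨(c % (p : ℤ)).toNat, ?_, rfl⟩
        rw [Finset.coe_range, Set.mem_Iio]
        omega
      · show y ^ (c % (p : ℤ)).toNat * ((y ^ p) ^ (c / (p : ℤ)) * l) = y ^ c * l
        rw [← mul_assoc]
        congr 1
        rw [← zpow_natCast y (c % (p : ℤ)).toNat, Int.toNat_of_nonneg hr0, ← zpow_natCast y p,
          ← zpow_mul, ← zpow_add, Int.emod_add_mul_ediv]
    calc Nat.card K = Nat.card ((K : Subgroup G) : Set G) := rfl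
      _ ≤ Nat.card (S * (N : Set G) : Set G) := Nat.card_mono (Set.toFinite _) hsub
      _ ≤ Nat.card S * Nat.card (N : Set G) := Set.natCard_mul_le
      _ ≤ p * Nat.card N := Nat.mul_le_mul_right _ hSc
  have hlt : Nat.card N < Nat.card K := by
    by_contra hcon
    have h1 : N = K := Subgroup.eq_of_le_of_card_ge hNK (not_lt.1 hcon)
    apply hy
    rw [h1]
    exact hyK
  rw [ha, hb] at hlt hle
  have h1 : b < a := (Nat.pow_lt_pow_iff_right hp.one_lt).1 hlt
  have h2 : p ^ a ≤ p ^ (b + 1) := by rw [pow_succ']; exact hle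
  have h3 : a ≤ b + 1 := (Nat.pow_le_pow_iff_right hp.one_lt).1 h2
  have h4 : a = b + 1 := by omega
  rw [ha, hb, h4, pow_succ']

section unif

variable [Finite G] {p : ℕ} [Fact p.Prime] {n : ℕ} {e : G}

theorem class_eqC (hU : UnifC p n e) : Group.nilpotencyClass G = n - 1 :=
  Helper73.nilpotencyClass_of_card_centralizer_eq_sq n G hU.card ⟨e, hU.cent⟩

theorem card_LC (hU : UnifC p n e) : ∀ i, 1 ≤ i → Nat.card (L G i) = p ^ (n - 1 - i) := by
  have hp : p.Prime := Fact.out
  have hP : IsPGroup p G := IsPGroup.of_card hU.card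
  haveI : Group.IsNilpotent G := hP.isNilpotent
  have hc := class_eqC hU
  have hn3 := hU.n3
  have h1 : Nat.card (L G 1) = p ^ (n - 2) := by
    have hidx := Helper73.commutator_index_of_maximal_class n hU.n3 hU.card hc
    have hmul := (commutator G).card_mul_index
    rw [hidx, hU.card] at hmul
    have h2 : Nat.card (commutator G) * p ^ 2 = p ^ (n - 2) * p ^ 2 := by
      rw [hmul, ← pow_add]
      congr 1
      omega
    exact Nat.eq_of_mul_eq_mul_right (pow_pos hp.pos 2) h2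
  have key : ∀ d, Nat.card (L G (d + 1)) = p ^ (n - 1 - (d + 1)) := by
    intro d
    induction d with
    | zero =>
      rw [h1]
      congr 1
    | succ d ih =>
      by_cases hd : d + 1 < n - 1
      · have hlt := Helper73.lowerCentralSeries_succ_lt (X := G) (i := d + 1) (by omega)
        have hdvd : Nat.card (L G (d + 1 + 1)) ∣ Nat.card (L G (d + 1)) :=
          Subgroup.card_dvd_of_le hlt.le
        rw [ih] at hdvd
        obtain ⟨k, hk, hkc⟩ := (Nat.dvd_prime_pow hp).1 hdvd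
        have hge := Helper73.pow_le_card_lowerCentralSeries hP (n - 1 - (d + 1 + 1)) (d + 1 + 1)
          (by omega)
        have hge' : p ^ (n - 1 - (d + 1 + 1)) ≤ p ^ k := by rw [← hkc]; exact hge
        have hk1 : n - 1 - (d + 1 + 1) ≤ k := (Nat.pow_le_pow_iff_right hp.one_lt).1 hge'
        have hk2 : k ≠ n - 1 - (d + 1) := by
          intro h
          have h3 : L G (d + 1 + 1) = L G (d + 1) :=
            Subgroup.eq_of_le_of_card_ge hlt.le (by rw [ih, hkc, h])
          exact hlt.ne h3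
        rw [hkc]
        congr 1
        omega
      · have hbot : L G (d + 1 + 1) = ⊥ :=
          (Subgroup.lowerCentralSeries_eq_bot_iff_nilpotencyClass_le).2 (by omega)
        rw [hbot, Subgroup.card_bot]
        have h0 : n - 1 - (d + 1 + 1) = 0 := by omega
        rw [h0, pow_zero]
  intro i hi
  obtain ⟨d, rfl⟩ : ∃ d, i = d + 1 := ⟨i - 1, by omega⟩
  exact key d

theorem L_eq_botC (hU : UnifC p n e) (i : ℕ) (hi : n ≤ i + 1) : L G i = ⊥ := by
  have hP : IsPGroup p G := IsPGroup.of_card hU.card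
  haveI : Group.IsNilpotent G := hP.isNilpotent
  have hc := class_eqC hU
  exact (Subgroup.lowerCentralSeries_eq_bot_iff_nilpotencyClass_le).2 (by omega)

theorem pow_le_card_of_comm_memC (hU : UnifC p n e) (N : Subgroup G)
    (hN : ∀ g, e⁻¹ * g * e * g⁻¹ ∈ N) : p ^ (n - 2) ≤ Nat.card N := by
  have hp : p.Prime := Fact.out
  have hn3 := hU.n3
  have h := card_le_mul e (⊤ : Subgroup G) (N : Set G) (fun g _ => hN g)
  rw [Subgroup.card_top, hU.card, hU.cent] at h
  have h' : p ^ n ≤ Nat.card N * p ^ 2 := h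
  have h2 : p ^ (n - 2) * p ^ 2 ≤ Nat.card N * p ^ 2 := by
    rw [← pow_add, show n - 2 + 2 = n by omega]
    exact h'
  exact Nat.le_of_mul_le_mul_right h2 (pow_pos hp.pos 2)

theorem not_mem_L1C (hU : UnifC p n e) : e ∉ L G 1 := by
  intro he
  have hp : p.Prime := Fact.out
  have hn3 := hU.n3
  have hN : ∀ g, e⁻¹ * g * e * g⁻¹ ∈ L G 2 := by
    intro g
    have e1 : e⁻¹ * g * e * g⁻¹ = ⁅e⁻¹, g⁆ := by rw [commutatorElement_def, inv_inv]
    rw [e1]
    exact comm_mem_L (inv_mem he) g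
  have h := pow_le_card_of_comm_memC hU (L G 2) hN
  rw [card_LC hU 2 (by omega)] at h
  have h2 := (Nat.pow_le_pow_iff_right hp.one_lt).1 h
  omega

theorem exists_conjC (hU : UnifC p n e) {x : G} (hx : x ∈ L G 1) :
    ∃ g : G, g * e * g⁻¹ = e * x := by
  by_contra hne
  push Not at hne
  have hp : p.Prime := Fact.out
  have hn3 := hU.n3
  have hD : ∀ g ∈ (⊤ : Subgroup G), e⁻¹ * g * e * g⁻¹ ∈ ((L G 1 : Set G) \ {x}) := by
    intro g _
    refine ⟨?_, ?_⟩
    · have e1 : e⁻¹ * g * e * g⁻¹ = ⁅e⁻¹, g⁆ := by rw [commutatorElement_def, inv_inv]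
      rw [e1]
      show ⁅e⁻¹, g⁆ ∈ ⁅(⊤ : Subgroup G), (⊤ : Subgroup G)⁆
      exact Subgroup.commutator_mem_commutator (H₁ := ⊤) (H₂ := ⊤) (Subgroup.mem_top e⁻¹)
        (Subgroup.mem_top g)
    · intro h
      rw [Set.mem_singleton_iff] at h
      apply hne g
      rw [← h]
      group
  have h := card_le_mul e (⊤ : Subgroup G) ((L G 1 : Set G) \ {x}) hD
  rw [Subgroup.card_top, hU.card, hU.cent, Nat.card_coe_set_eq,
    Set.ncard_sdiff_singleton_of_mem hx] at h
  have h1 : (L G 1 : Set G).ncard = p ^ (n - 2) := by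
    rw [← Nat.card_coe_set_eq]
    have h2 := card_LC hU 1 le_rfl
    rw [show n - 1 - 1 = n - 2 by omega] at h2
    exact h2
  rw [h1] at h
  have h3 : 0 < p ^ (n - 2) := pow_pos hp.pos _
  have h4 : (p ^ (n - 2) - 1) * p ^ 2 < p ^ (n - 2) * p ^ 2 :=
    Nat.mul_lt_mul_of_pos_right (by omega) (pow_pos hp.pos 2)
  rw [← pow_add, show n - 2 + 2 = n by omega] at h4
  omega

/-- `(e x) ^ p = e ^ p` for `x ∈ L 1`: `e x` is conjugate to `e` and `e ^ p` is central. -/
theorem mul_pow_eqC (hU : UnifC p n e) {x : G} (hx : x ∈ L G 1) : (e * x) ^ p = e ^ p := by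
  obtain ⟨g, hg⟩ := exists_conjC hU hx
  rw [← hg, conj_pow]
  have h := Subgroup.mem_center_iff.1 hU.pow g
  rw [h]
  group

/-- the centre is `L (n - 2)`, so `e ^ p ∈ L i` for `i ≤ n - 2`. -/
theorem pow_mem_LC (hU : UnifC p n e) (i : ℕ) (hi : i + 2 ≤ n) : e ^ p ∈ L G i := by
  have hp : p.Prime := Fact.out
  have hn3 := hU.n3
  have hLZ : L G (n - 2) ≤ Subgroup.center G := by
    intro x hx
    rw [Subgroup.mem_center_iff]
    intro g
    have h1 : ⁅x, g⁆ ∈ L G (n - 2 + 1) := comm_mem_L hx g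
    rw [L_eq_botC hU (n - 2 + 1) (by omega), Subgroup.mem_bot, commutatorElement_eq_one_iff_mul_comm]
      at h1
    exact h1.symm
  have hcL : Nat.card (L G (n - 2)) = p := by
    rw [card_LC hU (n - 2) (by omega), show n - 1 - (n - 2) = 1 by omega, pow_one]
  have hZC : Subgroup.center G ≤ Subgroup.centralizer ({e} : Set G) :=
    Subgroup.center_le_centralizer _
  have heZ : e ∉ Subgroup.center G := by
    intro he
    have h1 : Subgroup.centralizer ({e} : Set G) = ⊤ := by
      rw [eq_top_iff]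
      intro g _
      rw [Subgroup.mem_centralizer_iff]
      intro h hh
      rw [Set.mem_singleton_iff] at hh
      subst hh
      exact (Subgroup.mem_center_iff.1 he g).symm
    have h2 := hU.cent
    rw [h1, Subgroup.card_top, hU.card] at h2
    have h3 := Nat.pow_right_injective hp.two_le h2
    omega
  have heC : e ∈ Subgroup.centralizer ({e} : Set G) := by
    rw [Subgroup.mem_centralizer_iff]
    intro h hh
    rw [Set.mem_singleton_iff] at hh
    subst hh
    rfl
  have hcZ : Nat.card (Subgroup.center G) ≤ p := by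
    have hdvd : Nat.card (Subgroup.center G) ∣ p ^ 2 := by
      rw [← hU.cent]
      exact Subgroup.card_dvd_of_le hZC
    obtain ⟨k, hk, hkc⟩ := (Nat.dvd_prime_pow hp).1 hdvd
    have hk2 : k ≠ 2 := by
      rintro rfl
      have h1 : Subgroup.center G = Subgroup.centralizer ({e} : Set G) :=
        Subgroup.eq_of_le_of_card_ge hZC (by rw [hU.cent, hkc])
      exact heZ (h1 ▸ heC)
    rw [hkc]
    calc p ^ k ≤ p ^ 1 := Nat.pow_le_pow_right hp.pos (by omega)
      _ = p := pow_one p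
  have hEq : L G (n - 2) = Subgroup.center G :=
    Subgroup.eq_of_le_of_card_ge hLZ (by rw [hcL]; exact hcZ)
  have h1 : e ^ p ∈ L G (n - 2) := by rw [hEq]; exact hU.pow
  exact L_anti (by omega) h1

/-- `ad e` is injective on the factors of the lower central series. -/
theorem comm_not_memC (hU : UnifC p n e) {i : ℕ} (hi : 1 ≤ i) (hin : i + 3 ≤ n) {y : G}
    (hy : y ∈ L G i) (hc : y⁻¹ * (e * y * e⁻¹) ∈ L G (i + 2)) : y ∈ L G (i + 1) := by
  by_contra hy1
  have hp : p.Prime := Fact.out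
  have hNn : (L G (i + 2)).Normal := L_normal _
  let D : Subgroup G :=
    { carrier := {g | e⁻¹ * g * e * g⁻¹ ∈ L G (i + 2)}
      one_mem' := by
        show e⁻¹ * 1 * e * 1⁻¹ ∈ L G (i + 2)
        simp
      mul_mem' := by
        intro g h hg hh
        show e⁻¹ * (g * h) * e * (g * h)⁻¹ ∈ L G (i + 2)
        have e1 : e⁻¹ * (g * h) * e * (g * h)⁻¹ =
            (e⁻¹ * g * e * g⁻¹) * (g * (e⁻¹ * h * e * h⁻¹) * g⁻¹) := by group
        rw [e1]
        exact (L G (i + 2)).mul_mem hg (hNn.conj_mem _ hh g)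
      inv_mem' := by
        intro g hg
        show e⁻¹ * g⁻¹ * e * g⁻¹⁻¹ ∈ L G (i + 2)
        have e1 : e⁻¹ * g⁻¹ * e * g⁻¹⁻¹ = g⁻¹ * (e⁻¹ * g * e * g⁻¹)⁻¹ * g⁻¹⁻¹ := by group
        rw [e1]
        exact hNn.conj_mem _ ((L G (i + 2)).inv_mem hg) g⁻¹ }
  have hDmem : ∀ g, g ∈ D ↔ e⁻¹ * g * e * g⁻¹ ∈ L G (i + 2) := fun g => Iff.rfl
  have h1 := card_le_mul e D (L G (i + 2) : Set G) (fun g hg => hg)
  rw [hU.cent] at h1
  have h1' : Nat.card D ≤ Nat.card (L G (i + 2)) * p ^ 2 := h1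
  rw [card_LC hU (i + 2) (by omega)] at h1'
  -- lower bound
  have heD : e ∈ D := by
    rw [hDmem]
    simp
  have hyD : y ∈ D := by
    have h2 : y⁻¹ ∈ D := by
      rw [hDmem]
      have e1 : e⁻¹ * y⁻¹ * e * y⁻¹⁻¹ = e⁻¹ * (y⁻¹ * (e * y * e⁻¹)) * e⁻¹⁻¹ := by group
      rw [e1]
      exact hNn.conj_mem _ hc e⁻¹
    simpa using D.inv_mem h2
  have hLD : L G (i + 1) ≤ D := by
    intro g hg
    rw [hDmem]
    have e1 : e⁻¹ * g * e * g⁻¹ = (⁅g, e⁻¹⁆)⁻¹ := by
      rw [commutatorElement_inv, commutatorElement_def, inv_inv]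
    rw [e1]
    exact (L G (i + 2)).inv_mem (comm_mem_L hg e⁻¹)
  have hcard : Nat.card (L G i) = p * Nat.card (L G (i + 1)) := by
    rw [card_LC hU i hi, card_LC hU (i + 1) (by omega), ← pow_succ']
    congr 1
    omega
  have hLiD : L G i ≤ D :=
    (le_zpowers_sup (L_anti (Nat.le_succ i)) hcard hy hy1).trans
      (sup_le (by rw [Subgroup.zpowers_le]; exact hyD) hLD)
  have hUD : Subgroup.zpowers e ⊔ L G i ≤ D :=
    sup_le (by rw [Subgroup.zpowers_le]; exact heD) hLiD
  have h3 := card_zpowers_supC hU.card (L G i) (L_normal i)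
    (fun h => not_mem_L1C hU (L_anti hi h)) (pow_mem_LC hU i (by omega))
  have h4 : p * Nat.card (L G i) ≤ Nat.card D := by
    rw [← h3]
    exact Subgroup.card_le_of_le hUD
  rw [card_LC hU i hi] at h4
  have h5 : p * p ^ (n - 1 - i) ≤ p ^ (n - 1 - (i + 2)) * p ^ 2 := h4.trans h1'
  rw [← pow_succ', ← pow_add] at h5
  have h6 := (Nat.pow_le_pow_iff_right hp.one_lt).1 h5
  omega

/-- `℧₁(L i) ≤ L (i + p - 1)`. -/
theorem pow_memC (hU : UnifC p n e) {i : ℕ} (hi : 1 ≤ i) {x : G} (hx : x ∈ L G i) :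
    x ^ p ∈ L G (i + p - 1) := by
  have hp : p.Prime := Fact.out
  have hp2 := hp.two_le
  by_cases hin : i + 2 ≤ n
  swap
  · rw [L_eq_botC hU i (by omega), Subgroup.mem_bot] at hx
    rw [hx, one_pow]
    exact one_mem _
  obtain ⟨N, hN⟩ : ∃ N, N = L G (i + p - 1) := ⟨_, rfl⟩
  rw [← hN]
  have hNn : N.Normal := by rw [hN]; exact L_normal _
  obtain ⟨U, hUdef⟩ : ∃ U, U = Subgroup.zpowers e ⊔ L G i := ⟨_, rfl⟩
  have hNU : N ≤ U := by
    rw [hN, hUdef]
    exact (L_anti (by omega)).trans le_sup_right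
  have heU : e ∈ U := by rw [hUdef]; exact Subgroup.mem_sup_left (Subgroup.mem_zpowers e)
  have hxU : x ∈ U := by rw [hUdef]; exact Subgroup.mem_sup_right hx
  have hcU : Nat.card U = p * Nat.card (L G i) := by
    rw [hUdef]
    exact card_zpowers_supC hU.card (L G i) (L_normal i)
      (fun h => not_mem_L1C hU (L_anti hi h)) (pow_mem_LC hU i hin)
  have hcN : Nat.card (N.subgroupOf U) = Nat.card N :=
    Nat.card_congr (Subgroup.subgroupOfEquivOfLe hNU).toEquiv
  have hcQ := Subgroup.card_eq_card_quotient_mul_card_subgroup (N.subgroupOf U)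
  rw [hcU, hcN, hN, card_LC hU i hi, card_LC hU (i + p - 1) (by omega), ← hN] at hcQ
  obtain ⟨k, hk, hkQ⟩ : ∃ k, k ≤ p ∧ Nat.card (U ⧸ N.subgroupOf U) = p ^ k := by
    have hdvd : Nat.card (U ⧸ N.subgroupOf U) ∣ p ^ (n - 1 - i + 1) := by
      rw [pow_succ']
      exact Dvd.intro _ hcQ.symm
    obtain ⟨k, -, hk⟩ := (Nat.dvd_prime_pow hp).1 hdvd
    refine ⟨k, ?_, hk⟩
    rw [hk, ← pow_succ', ← pow_add] at hcQ
    have h1 := Nat.pow_right_injective hp.two_le hcQ
    omega
  have hreg : Cfsg.IsRegularPGroup p (U ⧸ N.subgroupOf U) :=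
    Cfsg.Agent.S4209.result (IsPGroup.of_card hkQ) (class_lt_of_card hkQ hk)
  have hex : (e * x) ^ p = e ^ p := mul_pow_eqC hU (L_anti hi hx)
  have hab := (Cfsg.Agent.S4210.result hreg
    (QuotientGroup.mk (⟨e * x, U.mul_mem heU hxU⟩ : U))
    (QuotientGroup.mk (⟨e, heU⟩ : U)) 1).1 (by
      rw [pow_one, ← QuotientGroup.mk_pow, ← QuotientGroup.mk_pow]
      congr 1
      apply Subtype.ext
      simpa using hex)
  rw [pow_one, ← QuotientGroup.mk_inv, ← QuotientGroup.mk_mul, ← QuotientGroup.mk_pow,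
    QuotientGroup.eq_one_iff, Subgroup.mem_subgroupOf] at hab
  have hab' : (e * x * e⁻¹) ^ p ∈ N := by simpa using hab
  rw [conj_pow] at hab'
  have h2 := hNn.conj_mem _ hab' e⁻¹
  simpa [mul_assoc] using h2

theorem cseq_not_memC (hU : UnifC p n e) {m : ℕ} (hm : 1 ≤ m) {b : G} (hb : b ∈ L G m)
    (hb1 : b ∉ L G (m + 1)) : ∀ j, m + j + 2 ≤ n → cseq e b j ∉ L G (m + j + 1) := by
  intro j
  induction j with
  | zero => intro _; exact hb1
  | succ j ih =>
    intro hj h
    apply ih (by omega)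
    exact comm_not_memC hU (i := m + j) (by omega) (by omega) (cseq_mem_L hb j) h

/-- `x ^ p ∉ L (m + p)` for `x ∈ L m \ L (m + 1)` when `L (m + p - 1) ≠ 1`. -/
theorem pow_not_memC (hU : UnifC p n e) {m : ℕ} (hm : 1 ≤ m) (hmn : m + p + 1 ≤ n) {b : G}
    (hb : b ∈ L G m) (hb1 : b ∉ L G (m + 1)) : b ^ p ∉ L G (m + p) := by
  intro hbp
  have hp : p.Prime := Fact.out
  have hp2 := hp.two_le
  have hanti := Ffil_anti (G := G) m
  have hcomm := Ffil_comm (G := G) hm
  have hanti' := Ffil'_anti (G := G) m p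
  have hcomm' := Ffil'_comm (G := G) hm hp2
  have hc : ∀ j, cseq e b j ∈ L G (m + j) := cseq_mem_L hb
  have hBmem : ∀ j k, Bseq e b j k ∈ L G (m + j) := fun j k =>
    (L_normal (m + j)).conj_mem _ (hc j) _
  have hBpoly : ∀ d j, n ≤ j + d → Poly (Ffil G m) (j + 1) (Bseq e b j) := by
    intro d
    induction d with
    | zero =>
      intro j hj
      have h1 : cseq e b j = 1 := by
        have h2 := hc j
        rw [L_eq_botC hU (m + j) (by omega)] at h2
        exact Subgroup.mem_bot.1 h2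
      have h2 : Bseq e b j = fun _ => 1 := by
        funext k
        show e ^ (k + 1) * cseq e b j * (e ^ (k + 1))⁻¹ = 1
        rw [h1]
        group
      rw [h2]
      exact poly_const (one_mem _)
    | succ d ih =>
      intro j hj
      apply poly_of_diff hanti
      · intro k
        show Bseq e b j k ∈ L G (m + (j + 1 - 1))
        rw [Nat.add_sub_cancel]
        exact hBmem j k
      · have h1 := ih (j + 1) (by omega)
        rw [← diff_Bseq] at h1
        exact h1
  have hPmem : ∀ k, Pseq e b k ∈ L G m := by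
    intro k
    induction k with
    | zero =>
      show (e * b) ^ 0 * (e ^ 0)⁻¹ ∈ L G m
      simp
    | succ k ih =>
      have h1 : Pseq e b (k + 1) = Pseq e b k * Bseq e b 0 k := by
        rw [← diff_Pseq]
        show _ = Pseq e b k * ((Pseq e b k)⁻¹ * Pseq e b (k + 1))
        group
      rw [h1]
      exact (L G m).mul_mem ih (by simpa using hBmem 0 k)
  have hPpoly : Poly (Ffil G m) 0 (Pseq e b) := by
    apply poly_of_diff hanti
    · intro k
      show Pseq e b k ∈ L G (m + (0 - 1))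
      simpa using hPmem k
    · have h1 := hBpoly n 0 (by omega)
      rw [← diff_Pseq] at h1
      exact h1
  have hP0 : Pseq e b 0 = 1 := by
    show (e * b) ^ 0 * (e ^ 0)⁻¹ = 1
    simp
  have hP1 : Pseq e b 1 = e * b * e⁻¹ := by
    show (e * b) ^ 1 * (e ^ 1)⁻¹ = _
    simp
  have hT1 : (Pseq e b 1) ^ (p.choose 1) ∈ L G (m + p) := by
    rw [hP1, Nat.choose_one_right, conj_pow]
    exact (L_normal (m + p)).conj_mem _ hbp e
  have hT : ∀ k, 2 ≤ k → k < p → ∀ g ∈ Ffil G m k, g ^ (p.choose k) ∈ L G (m + p) := by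
    intro k hk2 hkp g hg
    obtain ⟨t, ht⟩ := hp.dvd_choose_self (by omega) hkp
    rw [ht, pow_mul]
    apply Subgroup.pow_mem
    have h1 : g ^ p ∈ L G (m + (k - 1) + p - 1) := pow_memC hU (by omega) hg
    exact L_anti (by omega) h1
  have hle : ∀ k, 1 ≤ k → k < p → Ffil G m k ≤ Ffil' G m p k := by
    intro k _ hk
    show L G (m + (k - 1)) ≤ (if k < p then L G (m + (k - 1)) else L G (m + k))
    rw [if_pos hk]
  obtain ⟨Q, R, hPQR, hQ, hR0, hRp, hQp⟩ :=
    taylor hanti hcomm hanti' p hp.one_lt.le hle (L G (m + p)) hPpoly hP0 hT1 hT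
  have hPp : Pseq e b p = 1 := by
    show (e * b) ^ p * (e ^ p)⁻¹ = 1
    rw [mul_pow_eqC hU (L_anti hm hb)]
    group
  have hagree : ∀ j, 0 ≤ j → j < 0 + p → Pseq e b j = Q j := by
    intro j _ hj
    rw [hPQR j, hR0 j (by omega), mul_one]
  have h3 := iterDiff_congr_last p (Pseq e b) Q 0 hagree
  rw [zero_add, hPp, inv_one, mul_one] at h3
  have h4 : iterDiff p Q 0 ∈ Ffil' G m p (p + 0) := iterDiff_mem hanti' hcomm' hQ p 0
  have h5 : Ffil' G m p (p + 0) = L G (m + p) := by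
    show (if p + 0 < p then L G (m + (p + 0 - 1)) else L G (m + (p + 0))) = _
    rw [if_neg (by omega)]
    rfl
  rw [h5] at h4
  have h6 : iterDiff p (Pseq e b) 0 ∈ L G (m + p) := by
    rw [h3]
    exact mul_mem h4 (inv_mem hQp)
  have h7 : iterDiff p (Pseq e b) = Bseq e b (p - 1) := by
    have h8 := iterDiff_Pseq e b (p - 1)
    rwa [show p - 1 + 1 = p by omega] at h8
  rw [h7] at h6
  have h8 : cseq e b (p - 1) ∈ L G (m + p) := by
    have h9 := (L_normal (m + p)).conj_mem _ h6 (e ^ (0 + 1))⁻¹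
    have e1 : (e ^ (0 + 1))⁻¹ * Bseq e b (p - 1) 0 * (e ^ (0 + 1))⁻¹⁻¹ = cseq e b (p - 1) := by
      show (e ^ (0 + 1))⁻¹ * (e ^ (0 + 1) * cseq e b (p - 1) * (e ^ (0 + 1))⁻¹) *
        (e ^ (0 + 1))⁻¹⁻¹ = _
      group
    rwa [e1] at h9
  have h9 := cseq_not_memC hU hm hb hb1 (p - 1) (by omega)
  apply h9
  rw [show m + (p - 1) + 1 = m + p by omega]
  exact h8

end unif

end Cfsg.Agent.Lib.Helper56.BB.PS
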