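import Mathlib
import Cfsg.Agent.Lib.Helper56.BB.UnifC

set_option autoImplicit false

/-!
S4144 team project "BB", package [PS] (method 2): a uniform element gives the power structure
of the lower central series.  Only the package [UC] is needed.
-/

namespace Cfsg.Agent.Lib.Helper56.BB

open Cfsg.Agent.Lib.Helper63.MC Cfsg.Agent.Lib.Helper63.BB

universe u

/-- [PS] from [UC] alone. -/
theorem pkgPowStr_of_UC (hUC : PkgUnifCent.{u}) : PkgPowStr.{u} := by
  intro X _ _ p _ n hn hcard hclass s hs
  obtain ⟨hcent, hpow, -⟩ := hUC X p n hn hcard hclass s hs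
  have hU : PS.UnifC p n s := ⟨hcard, by omega, hpow, hcent⟩
  exact ⟨fun i hi x hx => PS.pow_memC hU hi hx,
    fun i hi hin x hx hx1 => PS.pow_not_memC hU hi hin hx hx1⟩

/-- [PS] in the interface form (the hypothesis [KB] is not used). -/
theorem pkgPowStr_of (hUC : PkgUnifCent.{u}) (_hKB : PkgKBasic.{u}) : PkgPowStr.{u} :=
  pkgPowStr_of_UC hUC

end Cfsg.Agent.Lib.Helper56.BB
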